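import Cfsg.Agent.Lib.KnownSimple.MultM.TitsL.Nat
import Cfsg.Agent.Lib.KnownSimple.MultM.TitsL.TabD
import Cfsg.Agent.Lib.KnownSimple.MultC.LowS

/-!
# The table of the letters
-/

set_option autoImplicit false

namespace Cfsg.Agent.Lib.KnownSimple.MultM.TitsL

open Cfsg Cfsg.Spor Cfsg.Agent.Lib.Compute Cfsg.Agent.Lib.KnownSimple.PE Cfsg.Agent.Lib.KnownSimple.Leech
open Cfsg.Agent.Lib.KnownSimple Cfsg.Agent.Lib.KnownSimple.AutRigid Cfsg.Agent.Lib.KnownSimple.Pres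
open Cfsg.Agent.Lib.KnownSimple.MultC


set_option maxRecDepth 100000 in
/-- The relators up to rotations. -/
def R0T : List (List ℕ) := [[0,0],
  [2,2],
  [4,4],
  [6,6],
  [8,8],
  [0,2,0,2,0,2,0,2,0,2,0,2],
  [0,4,0,4,0,4,0,4,0,4,0,4],
  [0,6,0,6,0,6],
  [0,8,0,8,0,8,0,8,0,8,0,8,0,8,0,8,0,8,0,8,0,8,0,8],
  [2,4,2,4,2,4,2,4],
  [2,6,2,6,2,6,2,6],
  [2,8,2,8,2,8,2,8,2,8,2,8,2,8,2,8,2,8,2,8,2,8,2,8,2,8],
  [4,6,4,6,4,6,4,6,4,6,4,6],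
  [4,8,4,8,4,8,4,8,4,8,4,8,4,8,4,8],
  [6,8,6,8,6,8,6,8,6,8,6,8,6,8,6,8,6,8,6,8,6,8,6,8],
  [0,2,4,0,2,4,2,0,4,2,0,4,2,4],
  [0,2,4,2,0,2,4,2,0,4,2,4,2,4],
  [0,2,4,2,4,0,4,0,4,2,4,2,0,4],
  [0,4,6,4,2,4,6,4,0,6],
  [6,2,4,2,6,2,0,2,4,2,4,0,2],
  [0,2,8,6,8,0,4,6,0,8,2,6,4,6,0,4],
  [0,6,2,4,2,6,8,6,2,4,2,6,0,8,4,8],
  [0,4,8,4,0,6,2,8,2,4,2,4,2,8,2,6],
  [0,4,2,8,4,0,6,2,8,4,2,4,8,2,4,6]]
/-- The number of points. -/
abbrev n : ℕ := 3200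
theorem h0 : 0 < n := by norm_num
/-- The table of the letters. -/
noncomputable abbrev τ : ℕ → ℕ → ℕ := tauP d tb
set_option maxHeartbeats 0 in
set_option maxRecDepth 100000 in
theorem hC : chkCoset τ d n = true := by decide +kernel
/-- The permutations of the letters. -/
noncomputable def C : Coset d n := mkCoset τ hC
set_option maxHeartbeats 0 in
set_option maxRecDepth 100000 in
theorem hloopT0 : ∀ r ∈ R0T, ∀ i, i < n → actW C.τ r i = i := loops_of_chk (by decide +kernel)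
set_option maxHeartbeats 0 in
set_option maxRecDepth 100000 in
theorem hrrT : (∀ r ∈ R0T, r ∈ stdRels S) ∧ (∀ r ∈ stdRels S, ∃ r₀ ∈ R0T, ∃ k, r₀.rotate k = r) :=
  of_chkRot (by decide +kernel)
theorem hloopS : ∀ r ∈ stdRels S, ∀ i, i < n → actW C.τ r i = i :=
  loops_rot C (fun r hr => hok r (hrrT.1 r hr)) hloopT0 hrrT.2
theorem exρ : ∃ ρ : P →* Equiv.Perm (Fin n), ∀ x, x < d → ρ (v x) = (C.p x)⁻¹ := exists_rho hP C hok hloopS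
/-- The representation on the points. -/
noncomputable def ρ : P →* Equiv.Perm (Fin n) := exρ.choose
theorem hρ : ∀ x, x < d → ρ (v x) = (C.p x)⁻¹ := exρ.choose_spec
set_option maxHeartbeats 0 in
set_option maxRecDepth 100000 in
theorem hTree : chkTree τ d n (lookP parT) (lookP genT) = true := by decide +kernel
theorem htr : ∀ i (hi : i < n), ∃ u : P, (ρ u)⁻¹ ⟨0, h0⟩ = ⟨i, hi⟩ := fun i hi => trans_of_tree C hρ hTree i hi

end Cfsg.Agent.Lib.KnownSimple.MultM.TitsL
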